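import Cfsg.Agent.SpTensor.Kron
import Cfsg.Agent.SpExt.Main
import Cfsg.Agent.GeoLib.TensorTools
import Cfsg.Agent.SubElusive.Cases
import Mathlib

/-!
Elements of prime order and the tensor product subgroups of the symplectic group.
-/

set_option autoImplicit false

namespace CfsgLib.SpTensor

open Matrix CfsgLib.SpSkew
open scoped Kronecker

universe u

variable {F : Type u} [Field F] {d a b : ℕ}

local notation "𝕍" => (Fin d ⊕ Fin d → F)
local notation "𝕄" => Matrix (Fin d ⊕ Fin d) (Fin d ⊕ Fin d) F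
local notation "𝔾" => GL (Fin d ⊕ Fin d) F
local notation "𝕗" => Cfsg.sympForm d F

/-- A matrix in tensor coordinates. -/
def frame (e : (Fin d ⊕ Fin d) ≃ Fin a × Fin b) (P : GL (Fin d ⊕ Fin d) F)
    (M : Matrix (Fin a × Fin b) (Fin a × Fin b) F) : Matrix (Fin d ⊕ Fin d) (Fin d ⊕ Fin d) F :=
  (P : 𝕄) * M.submatrix e e * ((P⁻¹ : 𝔾) : 𝕄)

variable {e : (Fin d ⊕ Fin d) ≃ Fin a × Fin b} {P : GL (Fin d ⊕ Fin d) F}

theorem frame_one : frame e P 1 = 1 := by
  rw [frame, Matrix.submatrix_one_equiv, mul_one, ← Units.val_mul, mul_inv_cancel, Units.val_one]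

theorem frame_smul (c : F) (M : Matrix (Fin a × Fin b) (Fin a × Fin b) F) :
    frame e P (c • M) = c • frame e P M := by
  simp only [frame, Matrix.submatrix_smul, Pi.smul_apply, mul_smul_comm, smul_mul_assoc]

theorem frame_mul (M N : Matrix (Fin a × Fin b) (Fin a × Fin b) F) :
    frame e P (M * N) = frame e P M * frame e P N := by
  rw [frame, frame, frame, ← Matrix.submatrix_mul_equiv M N e e e]
  calc _ = (P : 𝕄) * M.submatrix e e * (((P⁻¹ : 𝔾) : 𝕄) * (P : 𝕄)) * N.submatrix e e * ((P⁻¹ : 𝔾) : 𝕄) := by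
        rw [← Units.val_mul, inv_mul_cancel, Units.val_one, mul_one]; simp only [mul_assoc]
    _ = _ := by simp only [mul_assoc]

theorem frame_pow (M : Matrix (Fin a × Fin b) (Fin a × Fin b) F) : ∀ k : ℕ, frame e P (M ^ k) = frame e P M ^ k
  | 0 => by rw [pow_zero, pow_zero, frame_one]
  | k + 1 => by rw [pow_succ, pow_succ, frame_mul, frame_pow M k]

theorem frame_injective : Function.Injective (frame e P : Matrix (Fin a × Fin b) (Fin a × Fin b) F → 𝕄) := by
  intro M N h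
  have h1 := congrArg (fun A : 𝕄 => ((P⁻¹ : 𝔾) : 𝕄) * A * (P : 𝕄)) h
  simp only [frame, ← mul_assoc, ← Units.val_mul, inv_mul_cancel, Units.val_one, one_mul] at h1
  simp only [mul_assoc, ← Units.val_mul, inv_mul_cancel, Units.val_one, mul_one] at h1
  ext i j
  have := congrArg (fun A : 𝕄 => A (e.symm i) (e.symm j)) h1
  simpa using this

theorem frame_rank (M : Matrix (Fin a × Fin b) (Fin a × Fin b) F) : (frame e P M - 1).rank = (M - 1).rank := by
  have : frame e P M - 1 = (P : 𝕄) * (M - 1).submatrix e e * ((P⁻¹ : 𝔾) : 𝕄) := by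
    have h1 : (M - 1).submatrix e e = M.submatrix e e - 1 := by
      ext i j
      simp [Matrix.one_apply]
    rw [h1, mul_sub, sub_mul, mul_one, ← Units.val_mul, mul_inv_cancel, Units.val_one]
    rfl
  rw [this, Matrix.rank_mul_eq_left_of_isUnit_det _ _
      ((Matrix.isUnit_iff_isUnit_det _).1 (Units.isUnit _)),
    Matrix.rank_mul_eq_right_of_isUnit_det _ _ ((Matrix.isUnit_iff_isUnit_det _).1 (Units.isUnit _)),
    Matrix.rank_submatrix]

theorem exists_kron {g : 𝔾} (hg : g ∈ Cfsg.Geo.tensorProductSubgroup a b e P) :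
    ∃ (A : GL (Fin a) F) (B : GL (Fin b) F),
      (g : 𝕄) = frame e P ((A : Matrix (Fin a) (Fin a) F) ⊗ₖ (B : Matrix (Fin b) (Fin b) F)) := by
  obtain ⟨g₁, ⟨k, ⟨A, B, hab⟩, rfl⟩, rfl⟩ := hg
  refine ⟨A, B, ?_⟩
  rw [← hab]
  rfl

theorem mem_of_kron {g : 𝔾} (A : GL (Fin a) F) (B : GL (Fin b) F)
    (hg : (g : 𝕄) = frame e P ((A : Matrix (Fin a) (Fin a) F) ⊗ₖ (B : Matrix (Fin b) (Fin b) F))) :
    g ∈ Cfsg.Geo.tensorProductSubgroup a b e P := by
  have h1 : ((A : Matrix (Fin a) (Fin a) F) ⊗ₖ (B : Matrix (Fin b) (Fin b) F)) *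
      (((A⁻¹ : GL (Fin a) F) : Matrix (Fin a) (Fin a) F) ⊗ₖ ((B⁻¹ : GL (Fin b) F) : Matrix (Fin b) (Fin b) F)) = 1 := by
    rw [← Matrix.mul_kronecker_mul, ← Units.val_mul, ← Units.val_mul, mul_inv_cancel, mul_inv_cancel,
      Units.val_one, Units.val_one, Matrix.one_kronecker_one]
  let k : GL (Fin a × Fin b) F := ⟨_, _, h1, mul_eq_one_comm.1 h1⟩
  exact ⟨_, ⟨k, ⟨A, B, rfl⟩, rfl⟩, Units.ext (hg.trans rfl).symm⟩

variable [Fintype F]

/-- No tensor element is conjugate to a small element. -/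
theorem no_fix {p : ℕ} [Fact p.Prime] [CharP F p] (hab : 2 * d = a * b) (hae : Even a) (ha2 : 2 ≤ a) (hb : 3 ≤ b)
    {r : ℕ} [hr : Fact r.Prime] (hrp : r ≠ p) (hr2 : r ≠ 2) {c : ℕ} (x y g : 𝔾)
    (hy : y ∈ Cfsg.Geo.tensorProductSubgroup a b e P) (hyx : y = g⁻¹ * x * g) (hxr : (x : 𝕄) ^ r = 1)
    (hxns : ∀ z : F, (x : 𝕄) ≠ z • 1) (hc : ((x : 𝕄) - 1).rank ≤ c)
    (hce : c ≤ 2 * orderOf (Fintype.card F : ZMod r))
    (hsmall : orderOf (Fintype.card F : ZMod r) = 1 → c ≤ 2)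
    (hcom : a = 2 → Odd (orderOf (Fintype.card F : ZMod r)) → ∀ (j : 𝕄) (ν : F), ¬ IsSquare ν → j * j = ν • 1 →
      j * (x : 𝕄) ≠ (x : 𝕄) * j)
    (hceven : Even (orderOf (Fintype.card F : ZMod r)) → c ≤ orderOf (Fintype.card F : ZMod r))
    (hodd : Odd (Fintype.card F)) : False := by
  classical
  obtain ⟨A, B, hAB⟩ := exists_kron hy
  obtain ⟨Am, hAm⟩ : ∃ Am, Am = (A : Matrix (Fin a) (Fin a) F) := ⟨_, rfl⟩
  obtain ⟨Bm, hBm⟩ : ∃ Bm, Bm = (B : Matrix (Fin b) (Fin b) F) := ⟨_, rfl⟩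
  rw [← hAm, ← hBm] at hAB
  have hA : IsUnit Am.det := hAm ▸ (Matrix.isUnit_iff_isUnit_det _).1 (Units.isUnit _)
  have hB : IsUnit Bm.det := hBm ▸ (Matrix.isUnit_iff_isUnit_det _).1 (Units.isUnit _)
  have hgg : (g : 𝕄) * ((g⁻¹ : 𝔾) : 𝕄) = 1 := by rw [← Units.val_mul, mul_inv_cancel, Units.val_one]
  have hgg' : ((g⁻¹ : 𝔾) : 𝕄) * (g : 𝕄) = 1 := by rw [← Units.val_mul, inv_mul_cancel, Units.val_one]
  have hyv : (y : 𝕄) = ((g⁻¹ : 𝔾) : 𝕄) * (x : 𝕄) * (g : 𝕄) := by rw [hyx, Units.val_mul, Units.val_mul]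
  have hrank : (Am ⊗ₖ Bm - (1 : Matrix (Fin a × Fin b) (Fin a × Fin b) F)).rank ≤ c := by
    rw [← frame_rank (e := e) (P := P), ← hAB]
    have : (y : 𝕄) - 1 = ((g⁻¹ : 𝔾) : 𝕄) * ((x : 𝕄) - 1) * (g : 𝕄) := by
      rw [hyv, mul_sub, sub_mul, mul_one, hgg']
    rw [this]
    exact ((Matrix.rank_mul_le_left _ _).trans (Matrix.rank_mul_le_right _ _)).trans hc
  have hyr : (y : 𝕄) ^ r = 1 := by
    have hx1 : x ^ r = 1 := Units.ext (by rw [Units.val_pow_eq_pow_val, hxr, Units.val_one])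
    have h1 := map_pow (MulAut.conj g⁻¹) x r
    simp only [MulAut.conj_apply, inv_inv] at h1
    rw [← Units.val_pow_eq_pow_val, hyx, ← h1, hx1, mul_one, inv_mul_cancel, Units.val_one]
  have hKr : (Am ⊗ₖ Bm) ^ r = 1 := frame_injective (e := e) (P := P) (by rw [frame_pow, ← hAB, hyr, frame_one])
  have hKns : ∀ z : F, Am ⊗ₖ Bm ≠ z • (1 : Matrix (Fin a × Fin b) (Fin a × Fin b) F) := fun z hz => by
    refine hxns z ?_
    calc (x : 𝕄) = (g : 𝕄) * (y : 𝕄) * ((g⁻¹ : 𝔾) : 𝕄) := by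
          rw [hyv]; simp only [← mul_assoc, hgg, one_mul]; simp only [mul_assoc, hgg, mul_one]
      _ = z • 1 := by rw [hAB, hz, frame_smul, frame_one, mul_smul_comm, smul_mul_assoc, mul_one, hgg]
  have hcomA : a = 2 → Odd (orderOf (Fintype.card F : ZMod r)) → (∃ α : F, Am = α • 1) → False := by
    intro ha hodde ⟨α, hα⟩
    subst ha
    obtain ⟨ν, hν⟩ := FiniteField.exists_nonsquare (F := F) (by
      intro h
      have := FiniteField.even_card_of_char_two h
      obtain ⟨t, ht⟩ := hodd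
      omega)
    let J : Matrix (Fin 2) (Fin 2) F := !![0, ν; 1, 0]
    have hJJ : J * J = ν • 1 := by ext i j; fin_cases i <;> fin_cases j <;> simp [J, Matrix.mul_apply, Fin.sum_univ_two]
    obtain ⟨j₀, hj₀⟩ : ∃ j₀, j₀ = frame e P (J ⊗ₖ (1 : Matrix (Fin b) (Fin b) F)) := ⟨_, rfl⟩
    have hj₀sq : j₀ * j₀ = ν • 1 := by
      rw [hj₀, ← frame_mul, ← Matrix.mul_kronecker_mul, hJJ, mul_one, Matrix.smul_kronecker, Matrix.one_kronecker_one,
        frame_smul, frame_one]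
    have hcy : j₀ * (y : 𝕄) = (y : 𝕄) * j₀ := by
      rw [hj₀, hAB, ← frame_mul, ← frame_mul, hα, ← Matrix.mul_kronecker_mul, ← Matrix.mul_kronecker_mul,
        mul_smul_comm, smul_mul_assoc, mul_one, one_mul, mul_one, one_mul]
    refine hcom rfl hodde ((g : 𝕄) * j₀ * ((g⁻¹ : 𝔾) : 𝕄)) ν hν ?_ ?_
    · calc _ = (g : 𝕄) * j₀ * (((g⁻¹ : 𝔾) : 𝕄) * (g : 𝕄)) * (j₀ * ((g⁻¹ : 𝔾) : 𝕄)) := by simp only [mul_assoc]
        _ = ν • 1 := by
          rw [hgg', mul_one, mul_assoc (g : 𝕄), ← mul_assoc j₀, hj₀sq, smul_mul_assoc, one_mul, mul_smul_comm, hgg]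
    · have hxe : (x : 𝕄) = (g : 𝕄) * (y : 𝕄) * ((g⁻¹ : 𝔾) : 𝕄) := by
        rw [hyv]; simp only [← mul_assoc, hgg, one_mul]; simp only [mul_assoc, hgg, mul_one]
      rw [hxe]
      calc _ = (g : 𝕄) * (j₀ * (((g⁻¹ : 𝔾) : 𝕄) * (g : 𝕄)) * (y : 𝕄)) * ((g⁻¹ : 𝔾) : 𝕄) := by simp only [mul_assoc]
        _ = (g : 𝕄) * ((y : 𝕄) * (((g⁻¹ : 𝔾) : 𝕄) * (g : 𝕄)) * j₀) * ((g⁻¹ : 𝔾) : 𝕄) := by
            rw [hgg', mul_one, mul_one, hcy]
        _ = _ := by simp only [mul_assoc]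
  generalize he : orderOf (Fintype.card F : ZMod r) = e₀ at hce hceven hsmall hcomA
  have hrF : (r : F) ≠ 0 := fun h => hrp ((Nat.prime_dvd_prime_iff_eq (Fact.out : p.Prime) hr.out).1
    ((CharP.cast_eq_zero_iff F p r).1 h)).symm
  rcases Nat.lt_or_ge e₀ 2 with he2 | he2
  · -- `r` divides `q - 1`
    rcases Nat.eq_zero_or_pos e₀ with h0 | h0
    · have : c = 0 := by omega
      have := two_le_rank_le (by omega) hA hB hKns
      omega
    have hc2 : c ≤ 2 := hsmall (by omega)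
    rcases lt_or_ge a 3 with ha3 | ha3
    · have ha : a = 2 := by omega
      subst ha
      by_cases hAs : ∃ α : F, Am = α • 1
      · exact hcomA rfl ⟨0, by omega⟩ hAs
      · push Not at hAs
        have hAt : ∀ z : F, Amᵀ ≠ z • (1 : Matrix (Fin 2) (Fin 2) F) := fun z hz => hAs z (by
          rw [← Matrix.transpose_transpose Am, hz, Matrix.transpose_smul, Matrix.transpose_one])
        obtain ⟨w, hw⟩ := SubElusive.exists_moved Amᵀ hAt
        have h1 := SubElusive.rank_kron_of_cyclic (A := Am) hB w (fun S hS hwS => by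
          refine Submodule.eq_top_of_finrank_eq (le_antisymm (Submodule.finrank_le _) ?_)
          rw [Module.finrank_fin_fun]
          have : Submodule.span F (Set.range ![w, Amᵀ *ᵥ w]) ≤ S := Submodule.span_le.2 (by
            rintro _ ⟨i, rfl⟩
            fin_cases i
            · exact hwS
            · exact hS w hwS)
          have h2 := Submodule.finrank_mono this
          rwa [finrank_span_eq_card hw, Fintype.card_fin] at h2) (1 : F)
        rw [one_smul] at h1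
        omega
    · have := two_le_rank_le (by omega) hA hB hKns
      omega
  · -- normalise
    obtain ⟨s, hs0, hAs, hBs⟩ := scalar_of_kron_eq_one (by omega) (by omega) (by rw [← pow_kron, hKr] :
      (Am ^ r) ⊗ₖ (Bm ^ r) = (1 : Matrix (Fin a × Fin b) (Fin a × Fin b) F))
    have hnd : ¬ r ∣ Fintype.card F - 1 := by
      intro hdvd
      have h1 : (Fintype.card F : ZMod r) ^ 1 = 1 := by
        have h0 := (ZMod.natCast_eq_zero_iff _ r).2 hdvd
        rw [Nat.cast_sub Fintype.card_pos] at h0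
        push_cast at h0
        linear_combination h0
      have := Nat.le_of_dvd one_pos (orderOf_dvd_of_pow_eq_one h1)
      omega
    obtain ⟨t, ht⟩ := SubElusive.order_gt_one_power hnd s
    have ht0 : t ≠ 0 := fun h0 => hs0 (by rw [← ht, h0, zero_pow hr.out.ne_zero])
    obtain ⟨A', hA'⟩ : ∃ A', A' = t⁻¹ • Am := ⟨_, rfl⟩
    obtain ⟨B', hB'⟩ : ∃ B', B' = t • Bm := ⟨_, rfl⟩
    have hK : Am ⊗ₖ Bm = A' ⊗ₖ B' := by
      rw [hA', hB', Matrix.smul_kronecker, Matrix.kronecker_smul, smul_smul, inv_mul_cancel₀ ht0, one_smul]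
    have hA'r : A' ^ r = 1 := by rw [hA', smul_pow, hAs, smul_smul, inv_pow, ht, inv_mul_cancel₀ hs0, one_smul]
    have hB'r : B' ^ r = 1 := by rw [hB', smul_pow, hBs, smul_smul, ht, mul_inv_cancel₀ hs0, one_smul]
    have hB'd : IsUnit B'.det := by
      rw [hB', Matrix.det_smul]; exact ((Ne.isUnit ht0).pow _).mul hB
    have hA'd : IsUnit A'.det := by
      rw [hA', Matrix.det_smul]; exact ((Ne.isUnit (inv_ne_zero ht0)).pow _).mul hA
    rw [hK] at hrank
    have hswap : (B' ⊗ₖ A' - (1 : Matrix (Fin b × Fin a) (Fin b × Fin a) F)).rank =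
        (A' ⊗ₖ B' - (1 : Matrix (Fin a × Fin b) (Fin a × Fin b) F)).rank := by
      simpa using kron_swap_rank A' B' (1 : F)
    by_cases hA1 : A' = 1
    · have hB1 : B' ≠ 1 := fun h => hKns 1 (by rw [hK, hA1, h, Matrix.one_kronecker_one, one_smul])
      have h1 := (rank_moving (r := r) (A := B') hrF hA'd hB'r hB1).2 hA1
      rw [he, hswap] at h1
      rcases lt_or_ge a 3 with ha3 | ha3
      · have ha : a = 2 := by omega
        rcases Nat.even_or_odd e₀ with hev | hod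
        · have := hceven hev
          have : e₀ * 2 ≤ e₀ * a := Nat.mul_le_mul_left _ ha2
          omega
        · refine hcomA ha hod ⟨t, ?_⟩
          rw [← hA1, hA', smul_smul, mul_inv_cancel₀ ht0, one_smul]
      · have : e₀ * 3 ≤ e₀ * a := Nat.mul_le_mul_left _ ha3
        omega
    · by_cases hB1 : B' = 1
      · have h1 := (rank_moving (r := r) (A := A') hrF hB'd hA'r hA1).2 hB1
        rw [he] at h1
        have : e₀ * 3 ≤ e₀ * b := Nat.mul_le_mul_left _ hb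
        omega
      · have h1 := (rank_moving (r := r) (A := A') hrF hB'd hA'r hA1).1
        have h2 := (rank_moving (r := r) (A := B') hrF hA'd hB'r hB1).1
        rw [hswap] at h2
        obtain ⟨U, w, hU, -⟩ := exists_moving (r := r) hrF hA'r hA1
        obtain ⟨U', w', hU', -⟩ := exists_moving (r := r) hrF hB'r hB1
        have hea := hU.trans (Submodule.finrank_le U)
        have heb := hU'.trans (Submodule.finrank_le U')
        rw [Module.finrank_fin_fun, he] at hea heb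
        rw [he] at h1 h2
        rcases Nat.eq_or_lt_of_le he2 with h | h
        · have := hceven ⟨1, by omega⟩
          subst h
          omega
        · have ha4 : 4 ≤ a := by obtain ⟨k, hk⟩ := hae; omega
          rcases Nat.eq_or_lt_of_le h with h' | h'
          · subst h'
            omega
          · have : 4 * b ≤ e₀ * b := Nat.mul_le_mul_right _ h'
            have : e₀ * 4 ≤ e₀ * a := Nat.mul_le_mul_left _ ha4
            have : e₀ * e₀ ≤ e₀ * b := Nat.mul_le_mul_left _ heb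
            have : 4 * e₀ ≤ e₀ * e₀ := Nat.mul_le_mul_right _ h'
            rcases le_total a b with hle | hle
            · omega
            · have : e₀ * b ≤ e₀ * a := Nat.mul_le_mul_left _ hle
              have : e₀ * a ≤ e₀ * a := le_rfl
              omega

theorem rank_le_of_fix {x : 𝕄} {m : ℕ} {W : Submodule F 𝕍} (hW : m ≤ Module.finrank F W)
    (h : ∀ w ∈ W, x *ᵥ w = w) : (x - 1).rank ≤ 2 * d - m := by
  have h1 := LinearMap.finrank_range_add_finrank_ker (x - 1).mulVecLin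
  rw [Module.finrank_fintype_fun_eq_card, Fintype.card_sum, Fintype.card_fin] at h1
  have hle : W ≤ LinearMap.ker (x - 1).mulVecLin := fun w hw => by
    rw [LinearMap.mem_ker, Matrix.mulVecLin_apply, Matrix.sub_mulVec, h w hw, Matrix.one_mulVec, sub_self]
  have h2 := Submodule.finrank_mono hle
  show Module.finrank F (LinearMap.range (x - 1).mulVecLin) ≤ _
  omega

/-- The failing primes. -/
theorem exists_small {p : ℕ} [Fact p.Prime] [CharP F p] (hd : 2 ≤ d) {r : ℕ} [hr : Fact r.Prime] (hr2 : r ≠ 2)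
    (hrp : r ≠ p) (hdvd : r ∣ Fintype.card F ^ (d ^ 2) * ∏ i ∈ Finset.range d, (Fintype.card F ^ (2 * (i + 1)) - 1)) :
    ∃ (c : ℕ) (x : 𝔾), x ∈ Cfsg.spGL d F ∧ (x : 𝕄) ^ r = 1 ∧ (∀ z : F, (x : 𝕄) ≠ z • 1) ∧
      ((x : 𝕄) - 1).rank ≤ c ∧ c ≤ 2 * orderOf (Fintype.card F : ZMod r) ∧
      (orderOf (Fintype.card F : ZMod r) = 1 → c ≤ 2) ∧
      (Even (orderOf (Fintype.card F : ZMod r)) → c ≤ orderOf (Fintype.card F : ZMod r)) ∧
      (Odd (orderOf (Fintype.card F : ZMod r)) → ∀ (j : 𝕄) (ν : F), ¬ IsSquare ν → j * j = ν • 1 →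
        j * (x : 𝕄) ≠ (x : 𝕄) * j) := by
  classical
  obtain ⟨n, hp, hn⟩ := FiniteField.card F p
  have hrq : ¬ r ∣ Fintype.card F := fun h => hrp ((Nat.prime_dvd_prime_iff_eq hr.out hp).1
    (hr.out.dvd_of_dvd_pow (hn ▸ h)))
  rcases hr.out.dvd_mul.1 hdvd with h | h
  · exact absurd (hr.out.dvd_of_dvd_pow h) hrq
  obtain ⟨i, hi, hri⟩ := (Prime.dvd_finset_prod_iff hr.out.prime _).1 h
  rw [Finset.mem_range] at hi
  have hne : (Fintype.card F : ZMod r) ≠ 0 := fun h0 => hrq ((ZMod.natCast_eq_zero_iff _ _).1 h0)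
  have hpos : 1 ≤ orderOf (Fintype.card F : ZMod r) :=
    orderOf_pos_iff.2 (isOfFinOrder_iff_pow_eq_one.2 ⟨r - 1, by have := hr.out.two_le; omega, ZMod.pow_card_sub_one_eq_one hne⟩)
  have he2i : orderOf (Fintype.card F : ZMod r) ∣ 2 * (i + 1) := by
    refine orderOf_dvd_of_pow_eq_one ?_
    have h0 := (ZMod.natCast_eq_zero_iff _ r).2 hri
    rw [Nat.cast_sub (Nat.one_le_pow _ _ Fintype.card_pos)] at h0
    push_cast at h0
    linear_combination h0
  have hroot : ∃ (L : Type u) (_ : Field L) (_ : Algebra F L),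
      Module.finrank F L = orderOf (Fintype.card F : ZMod r) ∧ ∃ ζ : L, orderOf ζ = r := by
    obtain ⟨L₀, _, _, hfe₀, ζ₀, hζ₀⟩ := exists_root (F := F) (p := p) (r := r) hpos (pow_orderOf_eq_one _)
    refine ⟨ULift.{u} L₀, inferInstance, inferInstance, ?_, ULift.up ζ₀, ?_⟩
    · rw [LinearEquiv.finrank_eq (ULift.moduleEquiv : ULift.{u} L₀ ≃ₗ[F] L₀), hfe₀]
    · rw [← hζ₀]
      exact ((ULift.ringEquiv : ULift.{u} L₀ ≃+* L₀).toMulEquiv.orderOf_eq (ULift.up ζ₀)).symm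
  obtain ⟨L, _, _, hfe, ζ, hζ⟩ := hroot
  haveI : FiniteDimensional F L := FiniteDimensional.of_finrank_pos (by rw [hfe]; exact hpos)
  haveI : Finite L := Module.finite_of_finite F
  letI : Fintype L := Fintype.ofFinite L
  have hζr : ζ ^ r = 1 := hζ ▸ pow_orderOf_eq_one ζ
  have hζ1 : ζ ≠ 1 := fun h1 => hr.out.one_lt.ne' (by rw [← hζ, h1, orderOf_one])
  have hζ0 : ζ ≠ 0 := fun h0 => by rw [h0, zero_pow hr.out.ne_zero] at hζr; exact zero_ne_one hζr
  obtain ⟨t, ht⟩ := hr.out.odd_of_ne_two hr2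
  have hζ2 : ζ * ζ ≠ 1 := fun h2 => hζ1 (by rwa [ht, pow_succ, pow_mul, sq, h2, one_pow, one_mul] at hζr)
  rcases Nat.even_or_odd (orderOf (Fintype.card F : ZMod r)) with ⟨h, hh⟩ | hodd
  · have hh2 : orderOf (Fintype.card F : ZMod r) = 2 * h := by omega
    have hhi : h ∣ i + 1 := by rw [hh2] at he2i; exact Nat.dvd_of_mul_dvd_mul_left two_pos he2i
    have hhd : h ≤ d := (Nat.le_of_dvd (by omega) hhi).trans (by omega)
    let τ : L ≃ₐ[F] L := FiniteField.frobeniusAlgEquivOfAlgebraic F L ^ h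
    have hτ : ∀ z, τ z = z ^ (Fintype.card F ^ h) := fun z => by
      show (FiniteField.frobeniusAlgEquivOfAlgebraic F L ^ h) z = _
      rw [AlgEquiv.coe_pow, FiniteField.coe_frobeniusAlgEquivOfAlgebraic_iterate]
    have hqm : (Fintype.card F : ZMod r) ^ h = -1 := by
      have h1 : (Fintype.card F : ZMod r) ^ h * (Fintype.card F : ZMod r) ^ h = 1 := by
        rw [← pow_add, ← hh, pow_orderOf_eq_one]
      rcases mul_self_eq_one_iff.1 h1 with h3 | h3
      · have h4 := Nat.le_of_dvd (Nat.pos_of_ne_zero fun h0 => by omega) (orderOf_dvd_of_pow_eq_one h3)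
        omega
      · exact h3
    have hτζ : τ ζ = ζ⁻¹ := by
      rw [hτ]
      refine eq_inv_of_mul_eq_one_left ?_
      rw [← pow_succ, ← orderOf_dvd_iff_pow_eq_one, hζ, ← ZMod.natCast_eq_zero_iff, Nat.cast_add, Nat.cast_pow, hqm,
        Nat.cast_one, neg_add_cancel]
    have hdeg : ∀ j : ℕ, ζ ^ (Fintype.card F ^ j) = ζ → orderOf (Fintype.card F : ZMod r) ∣ j := fun j hj => by
      refine orderOf_dvd_of_pow_eq_one ?_
      have h1 : ζ ^ (Fintype.card F ^ j - 1) = 1 := by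
        refine mul_right_cancel₀ hζ0 ?_
        rw [← pow_succ, Nat.sub_add_cancel (Nat.one_le_pow _ _ Fintype.card_pos), hj, one_mul]
      have h3 := orderOf_dvd_of_pow_eq_one h1
      rw [hζ, ← ZMod.natCast_eq_zero_iff, Nat.cast_sub (Nat.one_le_pow _ _ Fintype.card_pos), Nat.cast_pow,
        Nat.cast_one, sub_eq_zero] at h3
      exact h3
    have hgen : ∀ z : L, ∃ Q : Polynomial F, Polynomial.aeval ζ Q = z := by
      intro z
      have htop : IntermediateField.adjoin F {ζ} = (⊤ : IntermediateField F L) := by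
        refine IntermediateField.eq_of_le_of_finrank_le le_top ?_
        rw [IntermediateField.finrank_top', hfe]
        refine Nat.le_of_dvd Module.finrank_pos (hdeg _ ?_)
        haveI : Finite ↥(IntermediateField.adjoin F {ζ}) := Module.finite_of_finite F
        letI : Fintype ↥(IntermediateField.adjoin F {ζ}) := Fintype.ofFinite _
        have h1 := FiniteField.pow_card
          (⟨ζ, IntermediateField.mem_adjoin_simple_self F ζ⟩ : IntermediateField.adjoin F {ζ})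
        rw [Module.card_eq_pow_finrank (K := F)] at h1
        exact congrArg Subtype.val h1
      have hz : z ∈ (IntermediateField.adjoin F {ζ}).toSubalgebra := by rw [htop]; trivial
      rw [IntermediateField.adjoin_simple_toSubalgebra_of_isAlgebraic (Algebra.IsAlgebraic.isAlgebraic ζ),
        Algebra.adjoin_singleton_eq_range_aeval] at hz
      exact hz
    have hnz : ∀ c : F, algebraMap F L c ≠ ζ := fun c hc => by
      have h1 := hdeg 1 (by rw [pow_one, ← hc, ← map_pow, FiniteField.pow_card])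
      have := Nat.le_of_dvd one_pos h1
      omega
    obtain ⟨x, hx, hxr, hxns, -, W, hW, hWx⟩ := SpExt.half_elem (k := h + 1) (r := r) (d := d) (hfe.trans hh2) hhd
      (fun hd' => by have := Nat.le_of_dvd (by omega) hd'; omega) τ hτ hζr hζ1 hζ2 hτζ hgen hnz
    exact ⟨_, x, hx, hxr, hxns, rank_le_of_fix hW hWx, by omega, fun h1 => by omega, fun _ => by omega,
      fun hodd' => absurd ⟨h, hh⟩ (Nat.not_even_iff_odd.2 hodd')⟩
  · have hei : orderOf (Fintype.card F : ZMod r) ∣ i + 1 :=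
      (Nat.Coprime.dvd_mul_left (Nat.coprime_two_right.2 hodd)).1 he2i
    obtain ⟨x, ⟨hx, hxr, hxns, -, W, hW, hWx⟩, hxc⟩ := SpExt.odd_elem' (k := 2) (d := d) hr.out hr2 hfe hodd
      ((Nat.le_of_dvd (by omega) hei).trans (by omega)) (by rw [← even_iff_two_dvd]; exact Nat.not_even_iff_odd.2 hodd)
      hζr hζ1
    exact ⟨_, x, hx, hxr, hxns, rank_le_of_fix hW hWx, by omega, fun h1 => by omega,
      fun he => absurd he (Nat.not_even_iff_odd.2 hodd), fun _ => hxc⟩

theorem two_fixes (h2 : (2 : F) ≠ 0) (hd : 1 ≤ d) {e : (Fin d ⊕ Fin d) ≃ Fin 2 × Fin d}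
    {P : GL (Fin d ⊕ Fin d) F} 
    (f₁ : (Fin 2 → F) → (Fin 2 → F) → F) (f₂ : (Fin d → F) → (Fin d → F) → F)
    (hf₁ : Cfsg.Geo.IsSymplecticForm f₁) (hf₂ : Cfsg.Geo.IsSymmetricForm f₂)
    (hS : Cfsg.Geo.IsTensorFormStructure id 𝕗 f₁ f₂ e P) {x : 𝔾} (hx : x ∈ Cfsg.spGL d F) {z : F}
    (hz : (x : 𝕄) * (x : 𝕄) = z • 1) :
    ∃ g ∈ Cfsg.spGL d F, g⁻¹ * x * g ∈ Cfsg.Geo.tensorProductSubgroup 2 d e P := by
  classical
  have hb₁ := hf₁.bilinear
  have hb₂ := hf₂.bilinear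
  obtain ⟨c, hc, hform⟩ := GeoTensor.form_pure (σ := RingHom.id F) (f := 𝕗) (f₁ := f₁) (f₂ := f₂) (e := e) (P := P)
    (fun u v => GeoTensor.eq_gram (σ := RingHom.id F) hb₁.add_left hb₁.smul_left hb₁.add_right (fun c v x => hb₁.smul_right c v x) u v)
    (fun u v => GeoTensor.eq_gram (σ := RingHom.id F) hb₂.add_left hb₂.smul_left hb₂.add_right (fun c v x => hb₂.smul_right c v x) u v)
    hS
  -- a diagonal basis
  let β : LinearMap.BilinForm F (Fin d → F) := LinearMap.mk₂ F f₂ hb₂.add_left hb₂.smul_left hb₂.add_right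
    (fun c m n => hb₂.smul_right c m n)
  haveI : Invertible (2 : F) := invertibleOfNonzero h2
  obtain ⟨bo, hbo⟩ := LinearMap.BilinForm.exists_orthogonal_basis (B := β) ⟨fun u v => hf₂.symm u v⟩
  let o : Fin d → (Fin d → F) := fun k => bo (Fin.cast (by rw [Module.finrank_fin_fun]) k)
  have ho : ∀ k l, k ≠ l → f₂ (o k) (o l) = 0 := fun k l hkl => hbo (fun h => hkl (Fin.cast_injective _ h))
  have hospan : ∀ u : Fin d → F, (∀ k, f₂ u (o k) = 0) → u = 0 := by
    intro u hu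
    by_contra hu0
    obtain ⟨-, w, hw⟩ := hf₂.nondegenerate u hu0
    refine hw ?_
    have : β u = 0 := bo.ext fun i => by
      have := hu (Fin.cast (by rw [Module.finrank_fin_fun]) i)
      simpa [o, β] using this
    exact LinearMap.congr_fun this w
  have hone : ∀ k, f₂ (o k) (o k) ≠ 0 := fun k h0 => bo.ne_zero _ (hospan (o k) fun l => by
    rcases eq_or_ne k l with rfl | hkl
    · exact h0
    · exact ho k l hkl)
  let ε₁ : Fin 2 → F := Pi.single 0 1
  let ε₂ : Fin 2 → F := Pi.single 1 1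
  obtain ⟨γ, hγd⟩ : ∃ γ, γ = f₁ ε₂ ε₁ := ⟨_, rfl⟩
  have hγ : γ ≠ 0 := by
    intro h0
    obtain ⟨-, w, hw'⟩ := hf₁.nondegenerate ε₁ (by simp [ε₁])
    refine hw' ?_
    have hw : w = w 0 • ε₁ + w 1 • ε₂ := by funext i; fin_cases i <;> simp [ε₁, ε₂]
    rw [hw, hb₁.add_right, hb₁.smul_right, hb₁.smul_right, hf₁.alternating, hf₁.skew ε₁ ε₂, ← hγd, h0]
    ring
  let lam : Fin d → F := fun k => (c * γ * f₂ (o k) (o k))⁻¹
  let vs : Fin d → (Fin d ⊕ Fin d → F) := fun k => GeoTensor.pure e P ε₁ (o k)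
  let ws : Fin d → (Fin d ⊕ Fin d → F) := fun k => lam k • GeoTensor.pure e P ε₂ (o k)
  obtain ⟨h, hh, hhi⟩ := exists_gl_of_family vs ws (fun k l => by
    refine ⟨?_, ?_, ?_⟩
    · simp only [vs, hform, hf₁.alternating, zero_mul, mul_zero]
    · simp only [ws, SpGeom.form_smul_left, SpGeom.form_smul_right, hform, hf₁.alternating, zero_mul, mul_zero]
    · simp only [ws, vs, SpGeom.form_smul_left, hform, ← hγd]
      by_cases hkl : k = l
      · subst hkl
        rw [if_pos rfl]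
        have := hone k
        simp only [lam]
        field_simp
      · rw [if_neg hkl, ho k l hkl, mul_zero, mul_zero, mul_zero])
  have hmv : ∀ (A : Matrix (Fin 2) (Fin 2) F) (B : Matrix (Fin d) (Fin d) F) u v,
      frame e P (A ⊗ₖ B) *ᵥ GeoTensor.pure e P u v = GeoTensor.pure e P (A *ᵥ u) (B *ᵥ v) := by
    intro A B u v
    rw [frame, GeoTensor.pure, GeoTensor.pure, ← Matrix.mulVec_mulVec, ← Matrix.mulVec_mulVec,
      Matrix.mulVec_mulVec _ ((P⁻¹ : 𝔾) : 𝕄), ← Units.val_mul, inv_mul_cancel, Units.val_one, Matrix.one_mulVec,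
      Matrix.submatrix_mulVec_equiv]
    congr 1
    funext i
    have := congrFun (SubElusive.kron_mulVec A B u v) (e i)
    simp only [Function.comp_apply]
    rw [← this]
    congr 1
    congr 1
    funext x
    simp
  have finish : ∀ (g : 𝔾), g ∈ Cfsg.spGL d F → ∀ (M : 𝕄) (A : GL (Fin 2) F) (B : GL (Fin d) F),
      (x : 𝕄) * (g : 𝕄) = (g : 𝕄) * M →
      frame e P ((A : Matrix (Fin 2) (Fin 2) F) ⊗ₖ (B : Matrix (Fin d) (Fin d) F)) * (h : 𝕄) = (h : 𝕄) * M →
      ∃ g ∈ Cfsg.spGL d F, g⁻¹ * x * g ∈ Cfsg.Geo.tensorProductSubgroup 2 d e P := by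
    intro g hg M A B hxg hy
    refine ⟨g * h⁻¹, Subgroup.mul_mem _ hg (Subgroup.inv_mem _ hh), mem_of_kron A B ?_⟩
    rw [_root_.mul_inv_rev, inv_inv]
    simp only [Units.val_mul]
    calc _ = (h : 𝕄) * ((g⁻¹ : 𝔾) : 𝕄) * ((x : 𝕄) * (g : 𝕄)) * ((h⁻¹ : 𝔾) : 𝕄) := by simp only [mul_assoc]
      _ = (h : 𝕄) * M * ((h⁻¹ : 𝔾) : 𝕄) := by
          rw [hxg, ← mul_assoc, mul_assoc (h : 𝕄), ← Units.val_mul, inv_mul_cancel, Units.val_one, mul_one]
      _ = _ := by rw [← hy, mul_assoc, ← Units.val_mul, mul_inv_cancel, Units.val_one, mul_one]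
  have hform' := GeoSp.mem_spGL.1 hx
  have hxx : ∀ u, (x : 𝕄) *ᵥ ((x : 𝕄) *ᵥ u) = z • u := fun u => by
    rw [Matrix.mulVec_mulVec, hz, Matrix.smul_mulVec, Matrix.one_mulVec]
  have hz2 : z * z = 1 := by
    obtain ⟨y, hy⟩ := SpGeom.exists_form_ne_zero (F := F) (v := (Pi.single (Sum.inl ⟨0, hd⟩) 1 : Fin d ⊕ Fin d → F))
      (by simp)
    have h1 := hform' ((x : 𝕄) *ᵥ Pi.single (Sum.inl ⟨0, hd⟩) 1) ((x : 𝕄) *ᵥ y)
    rw [hxx, hxx, hform', SpGeom.form_smul_left, SpGeom.form_smul_right, ← mul_assoc] at h1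
    exact mul_right_cancel₀ hy (h1.trans (one_mul _).symm)
  rcases mul_self_eq_one_iff.1 hz2 with rfl | rfl
  · obtain ⟨g, hg, es, hes, hxg⟩ := exists_conj_eigen h2 hform' (by rw [hz, one_smul])
    let bb : Module.Basis (Fin d) F (Fin d → F) := bo.reindex (finCongr (by rw [Module.finrank_fin_fun]))
    have hbb : ∀ k, bb k = o k := fun k => by simp [bb, o]
    let T : (Fin d → F) →ₗ[F] (Fin d → F) := bb.constr F (fun k => es k • bb k)
    have hT : ∀ k, T (o k) = es k • o k := fun k => by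
      rw [← hbb]; exact bb.constr_basis F (fun k => es k • bb k) k
    have hTT : LinearMap.toMatrix' T * LinearMap.toMatrix' T = 1 := by
      rw [← LinearMap.toMatrix'_comp, ← LinearMap.toMatrix'_id]
      congr 1
      refine bb.ext fun k => ?_
      rw [LinearMap.comp_apply, hbb, hT, map_smul, hT, smul_smul, hes, one_smul]
      rfl
    let B : GL (Fin d) F := ⟨LinearMap.toMatrix' T, LinearMap.toMatrix' T, hTT, hTT⟩
    refine finish g hg _ 1 B hxg (ext_single (fun k => ?_) fun k => ?_)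
    · rw [← Matrix.mulVec_mulVec, ← Matrix.mulVec_mulVec, (hhi k).1, Matrix.diagonal_mulVec_single,
        show (Pi.single (Sum.inl k) (Sum.elim es es (Sum.inl k) * 1) : Fin d ⊕ Fin d → F) =
          es k • Pi.single (Sum.inl k) 1 by funext i; simp [Pi.single_apply],
        Matrix.mulVec_smul, (hhi k).1]
      simp only [vs]
      rw [hmv, Units.val_one, Matrix.one_mulVec, show (B : Matrix (Fin d) (Fin d) F) = LinearMap.toMatrix' T from rfl,
        LinearMap.toMatrix'_mulVec, hT, GeoTensor.pure_smul_right]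
    · rw [← Matrix.mulVec_mulVec, ← Matrix.mulVec_mulVec, (hhi k).2, Matrix.diagonal_mulVec_single,
        show (Pi.single (Sum.inr k) (Sum.elim es es (Sum.inr k) * 1) : Fin d ⊕ Fin d → F) =
          es k • Pi.single (Sum.inr k) 1 by funext i; simp [Pi.single_apply],
        Matrix.mulVec_smul (h : 𝕄), (hhi k).2]
      simp only [ws]
      rw [Matrix.mulVec_smul, hmv, Units.val_one, Matrix.one_mulVec,
        show (B : Matrix (Fin d) (Fin d) F) = LinearMap.toMatrix' T from rfl, LinearMap.toMatrix'_mulVec, hT,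
        GeoTensor.pure_smul_right, smul_comm]
  · have hskx : IsSkew (x : 𝕄) := fun u v => by
      have h1 := hform' u ((x : 𝕄) *ᵥ v)
      rw [hxx, neg_one_smul, ← neg_one_smul F v, SpGeom.form_smul_right] at h1
      linear_combination -h1
    let M : 𝕄 := Matrix.fromBlocks 0 (-Matrix.diagonal lam) (Matrix.diagonal fun k => (lam k)⁻¹) 0
    have hlam : ∀ k, lam k ≠ 0 := fun k => inv_ne_zero (mul_ne_zero (mul_ne_zero hc hγ) (hone k))
    have hMsk : IsSkew M := by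
      intro u v
      rw [SpGeom.form_def, SpGeom.form_def, ← Finset.sum_neg_distrib]
      refine Finset.sum_congr rfl fun i _ => ?_
      simp [M, Matrix.fromBlocks_mulVec, Matrix.neg_mulVec, Matrix.mulVec_diagonal]
      ring
    have hMsq : M * M = (-1 : F) • 1 := by
      simp only [M]
      rw [Matrix.fromBlocks_multiply, ← Matrix.fromBlocks_one, Matrix.fromBlocks_smul, smul_zero]
      simp only [mul_zero, zero_mul, zero_add, add_zero, neg_mul, mul_neg, Matrix.diagonal_mul_diagonal]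
      congr 1 <;> ext i j <;> by_cases hij : i = j <;> simp [hij, Matrix.diagonal_apply, Matrix.one_apply, hlam]
    obtain ⟨g₁, hg₁, hg₁j⟩ := exists_conj_stdJ h2 hskx (neg_ne_zero.2 one_ne_zero) hz
    obtain ⟨g₂, hg₂, hg₂j⟩ := exists_conj_stdJ h2 hMsk (neg_ne_zero.2 one_ne_zero) hMsq
    let J : Matrix (Fin 2) (Fin 2) F := !![0, -1; 1, 0]
    have hJ : J * (-J) = 1 := by ext i j; fin_cases i <;> fin_cases j <;> simp [J, Matrix.mul_apply, Fin.sum_univ_two]
    let A : GL (Fin 2) F := ⟨J, -J, hJ, mul_eq_one_comm.1 hJ⟩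
    refine finish (g₁ * g₂⁻¹) (Subgroup.mul_mem _ hg₁ (Subgroup.inv_mem _ hg₂)) M A 1 ?_
      (ext_single (fun k => ?_) fun k => ?_)
    · have hM : M = (g₂ : 𝕄) * stdJ d (-1) * ((g₂⁻¹ : 𝔾) : 𝕄) := by
        rw [← hg₂j, mul_assoc, ← Units.val_mul, mul_inv_cancel, Units.val_one, mul_one]
      rw [hM, Units.val_mul, ← mul_assoc, hg₁j]
      rw [show (g₁ : 𝕄) * ((g₂⁻¹ : 𝔾) : 𝕄) * ((g₂ : 𝕄) * stdJ d (-1) * ((g₂⁻¹ : 𝔾) : 𝕄)) =
        (g₁ : 𝕄) * (((g₂⁻¹ : 𝔾) : 𝕄) * (g₂ : 𝕄)) * stdJ d (-1) * ((g₂⁻¹ : 𝔾) : 𝕄) by simp only [mul_assoc],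
        ← Units.val_mul, inv_mul_cancel, Units.val_one, mul_one]
    · have hM1 : M *ᵥ Pi.single (Sum.inl k) 1 = (lam k)⁻¹ • Pi.single (Sum.inr k) 1 := by
        rw [Matrix.mulVec_single_one]
        funext i
        rcases i with i | i <;> simp [M, Matrix.col_apply, Matrix.diagonal_apply, Pi.single_apply]
        by_cases hik : i = k <;> simp [hik]
      rw [← Matrix.mulVec_mulVec, ← Matrix.mulVec_mulVec, (hhi k).1, hM1, Matrix.mulVec_smul, (hhi k).2]
      simp only [vs, ws]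
      rw [hmv, Units.val_one, Matrix.one_mulVec, smul_smul, inv_mul_cancel₀ (hlam k), one_smul]
      congr 1
      funext i; fin_cases i <;> simp [A, J, ε₁, ε₂]
    · have hM2 : M *ᵥ Pi.single (Sum.inr k) 1 = (-lam k) • Pi.single (Sum.inl k) 1 := by
        rw [Matrix.mulVec_single_one]
        funext i
        rcases i with i | i <;> simp [M, Matrix.col_apply, Matrix.diagonal_apply, Pi.single_apply]
        by_cases hik : i = k <;> simp [hik]
      rw [← Matrix.mulVec_mulVec, ← Matrix.mulVec_mulVec, (hhi k).2, hM2, Matrix.mulVec_smul (h : 𝕄), (hhi k).1]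
      simp only [vs, ws]
      rw [Matrix.mulVec_smul, hmv, Units.val_one, Matrix.one_mulVec, neg_smul, ← smul_neg]
      congr 1
      rw [← neg_one_smul F (GeoTensor.pure e P ε₁ (o k)), ← GeoTensor.pure_smul_left]
      congr 1
      funext i; fin_cases i <;> simp [A, J, ε₁, ε₂]

/-- The criterion. -/
theorem main {p : ℕ} [Fact p.Prime] [CharP F p] (hodd : Odd (Fintype.card F)) (hd : 2 ≤ d) (hab : 2 * d = a * b)
    (hae : Even a) (ha2 : 2 ≤ a) (hb : 3 ≤ b) (e : (Fin d ⊕ Fin d) ≃ Fin a × Fin b) (P : 𝔾)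
    (f₁ : (Fin a → F) → (Fin a → F) → F) (f₂ : (Fin b → F) → (Fin b → F) → F)
    (hf₁ : Cfsg.Geo.IsSymplecticForm f₁) (hf₂ : Cfsg.Geo.IsSymmetricForm f₂)
    (hS : Cfsg.Geo.IsTensorFormStructure id 𝕗 f₁ f₂ e P) (r : ℕ) [hr : Fact r.Prime]
    (hΩ : r ∣ (Cfsg.Geo.tensorProductSubgroup a b e P).relIndex (Cfsg.spGL d F)) :
    (∀ x ∈ Cfsg.spGL d F, (∃ z : F, ((x ^ r : 𝔾) : 𝕄) = z • (1 : 𝕄)) → (∀ z : F, (x : 𝕄) ≠ z • (1 : 𝕄)) →
      ∃ g ∈ Cfsg.spGL d F, g⁻¹ * x * g ∈ Cfsg.Geo.tensorProductSubgroup a b e P) ↔ (r = 2 ∧ a = 2) := by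
  classical
  have h2 : (2 : F) ≠ 0 := by
    intro h0
    have hchar : ringChar F = 2 := by
      have hdvd := ringChar.dvd (R := F) (x := 2) (by exact_mod_cast h0)
      exact ((Nat.dvd_prime Nat.prime_two).1 hdvd).resolve_left CharP.ringChar_ne_one
    have := FiniteField.even_card_of_char_two hchar
    obtain ⟨t, ht⟩ := hodd
    omega
  constructor
  · intro hall
    by_contra hexc
    have small : ∀ (x : 𝔾), x ∈ Cfsg.spGL d F → (x : 𝕄) ^ r = 1 → (∀ z : F, (x : 𝕄) ≠ z • 1) →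
        ((x : 𝕄) - 1).rank < min a b → False := by
      intro x hx hxr hxns hrk
      obtain ⟨g, -, hy⟩ := hall x hx ⟨1, by rw [Units.val_pow_eq_pow_val, hxr, one_smul]⟩ hxns
      obtain ⟨A, B, hAB⟩ := exists_kron hy
      have hgg' : ((g⁻¹ : 𝔾) : 𝕄) * (g : 𝕄) = 1 := by rw [← Units.val_mul, inv_mul_cancel, Units.val_one]
      have hgg : (g : 𝕄) * ((g⁻¹ : 𝔾) : 𝕄) = 1 := by rw [← Units.val_mul, mul_inv_cancel, Units.val_one]
      rw [Units.val_mul, Units.val_mul] at hAB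
      have hrank : ((A : Matrix (Fin a) (Fin a) F) ⊗ₖ (B : Matrix (Fin b) (Fin b) F) - 1).rank ≤ ((x : 𝕄) - 1).rank := by
        rw [← frame_rank (e := e) (P := P), ← hAB]
        have : ((g⁻¹ : 𝔾) : 𝕄) * (x : 𝕄) * (g : 𝕄) - 1 = ((g⁻¹ : 𝔾) : 𝕄) * ((x : 𝕄) - 1) * (g : 𝕄) := by
          rw [mul_sub, sub_mul, mul_one, hgg']
        rw [this]
        exact (Matrix.rank_mul_le_left _ _).trans (Matrix.rank_mul_le_right _ _)
      have := two_le_rank_le (a := a) (b := b) (by omega)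
        ((Matrix.isUnit_iff_isUnit_det _).1 (Units.isUnit A)) ((Matrix.isUnit_iff_isUnit_det _).1 (Units.isUnit B))
        (fun z hz => hxns z (by
          rw [hz, frame_smul, frame_one] at hAB
          calc (x : 𝕄) = (g : 𝕄) * (((g⁻¹ : 𝔾) : 𝕄) * (x : 𝕄) * (g : 𝕄)) * ((g⁻¹ : 𝔾) : 𝕄) := by
                simp only [← mul_assoc, hgg, one_mul]; simp only [mul_assoc, hgg, mul_one]
            _ = z • 1 := by rw [hAB, mul_smul_comm, smul_mul_assoc, mul_one, hgg]))
      omega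
    rcases eq_or_ne r p with rfl | hrp
    · obtain ⟨x, hx, hxr, hxns, -, W, hW, hWx⟩ := SpExt.transvection_elem (p := r) (F := F) (d := d) (by omega) one_lt_two
      exact small x hx hxr hxns (by have := rank_le_of_fix hW hWx; omega)
    rcases eq_or_ne r 2 with rfl | hr2
    · have ha : a ≠ 2 := fun h => hexc ⟨rfl, h⟩
      obtain ⟨x, hx, hxr, hxns, -, W, hW, hWx⟩ := SpExt.plane_elem (F := F) h2 hd one_lt_two
      exact small x hx hxr hxns (by have := rank_le_of_fix hW hWx; omega)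
    have eSp : Cfsg.spGL d F ≃ Matrix.symplecticGroup (Fin d) F :=
      Equiv.ofBijective (fun g => ⟨_, SpGeom.mem_of_form (GeoSp.mem_spGL.1 g.2)⟩)
        ⟨fun a b h => Subtype.ext (Units.ext (congrArg Subtype.val h)),
          fun A => ⟨⟨GeoSp.toG A, GeoSp.toG_mem A⟩, rfl⟩⟩
    have hdvd : r ∣ Fintype.card F ^ (d ^ 2) * ∏ i ∈ Finset.range d, (Fintype.card F ^ (2 * (i + 1)) - 1) := by
      rw [← SpGeom.card_Sp, ← Nat.card_congr eSp]
      exact hΩ.trans (Subgroup.index_dvd_card _)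
    obtain ⟨c, x, hx, hxr, hxns, hc, hce, hsm, hev, hcom⟩ := exists_small (p := p) hd hr2 hrp hdvd
    obtain ⟨g, -, hy⟩ := hall x hx ⟨1, by rw [Units.val_pow_eq_pow_val, hxr, one_smul]⟩ hxns
    exact no_fix (p := p) hab hae ha2 hb hrp hr2 x _ g hy rfl hxr hxns hc hce hsm (fun _ => hcom) hev hodd
  · rintro ⟨rfl, rfl⟩ x hx ⟨z, hz⟩ _
    obtain rfl : b = d := by omega
    exact two_fixes h2 (by omega) f₁ f₂ hf₁ hf₂ hS hx (z := z) (by rw [← hz, sq, Units.val_mul])

end CfsgLib.SpTensor
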