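import Mathlib
import Cfsg.Agent.SubElusive.Tensor
import Cfsg.Prelude.Def_GeometricClasses

/-!
Lower bounds for the moving space of Kronecker products of elements of prime order.
-/

set_option autoImplicit false

namespace CfsgLib.SpTensor

open Matrix Module
open scoped Kronecker

variable {F : Type*} [Field F] {a b r : ℕ}

theorem pow_kron (A : Matrix (Fin a) (Fin a) F) (B : Matrix (Fin b) (Fin b) F) :
    ∀ k : ℕ, (A ⊗ₖ B) ^ k = (A ^ k) ⊗ₖ (B ^ k)
  | 0 => by simp
  | k + 1 => by rw [pow_succ, pow_succ, pow_succ, pow_kron A B k, Matrix.mul_kronecker_mul]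

theorem scalar_of_kron_eq_one (ha : 1 ≤ a) (hb : 1 ≤ b) {A : Matrix (Fin a) (Fin a) F} {B : Matrix (Fin b) (Fin b) F}
    (h : A ⊗ₖ B = (1 : Matrix (Fin a × Fin b) (Fin a × Fin b) F)) :
    ∃ s : F, s ≠ 0 ∧ A = s • 1 ∧ B = s⁻¹ • 1 := by
  let i0 : Fin a := ⟨0, ha⟩
  let k0 : Fin b := ⟨0, hb⟩
  have e : ∀ i j k l, A i j * B k l = if i = j ∧ k = l then 1 else 0 := fun i j k l => by
    have := congrArg (fun M : Matrix (Fin a × Fin b) (Fin a × Fin b) F => M (i, k) (j, l)) h
    simpa [Matrix.kroneckerMap_apply, Matrix.one_apply, Prod.ext_iff] using this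
  have h0 := e i0 i0 k0 k0
  rw [if_pos ⟨rfl, rfl⟩] at h0
  have hA0 : A i0 i0 ≠ 0 := left_ne_zero_of_mul_eq_one h0
  have hB0 : B k0 k0 ≠ 0 := right_ne_zero_of_mul_eq_one h0
  refine ⟨A i0 i0, hA0, Matrix.ext fun i j => ?_, Matrix.ext fun k l => ?_⟩
  · rw [Matrix.smul_apply, Matrix.one_apply, smul_eq_mul]
    refine mul_right_cancel₀ hB0 ?_
    rw [e i j k0 k0]
    by_cases hij : i = j
    · subst hij; simp [h0]
    · simp [hij]
  · rw [Matrix.smul_apply, Matrix.one_apply, smul_eq_mul]
    refine mul_left_cancel₀ hA0 ?_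
    rw [e i0 i0 k l]
    by_cases hkl : k = l
    · subst hkl; simp [hA0]
    · simp [hkl]

theorem kron_swap_rank (A : Matrix (Fin a) (Fin a) F) (B : Matrix (Fin b) (Fin b) F) (c : F) :
    (B ⊗ₖ A - c • 1).rank = (A ⊗ₖ B - c • 1).rank := by
  have : B ⊗ₖ A - c • 1 = Matrix.reindex (Equiv.prodComm (Fin a) (Fin b)) (Equiv.prodComm (Fin a) (Fin b))
      (A ⊗ₖ B - c • 1) := by
    ext ⟨i, k⟩ ⟨j, l⟩
    simp [Matrix.one_apply, Prod.ext_iff, mul_comm (B i j), and_comm]
  rw [this, Matrix.rank_reindex]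

theorem two_le_rank_le (ha : 1 ≤ a) {A : Matrix (Fin a) (Fin a) F} {B : Matrix (Fin b) (Fin b) F} (hA : IsUnit A.det)
    (hB : IsUnit B.det) (hK : ∀ z : F, A ⊗ₖ B ≠ z • (1 : Matrix (Fin a × Fin b) (Fin a × Fin b) F)) :
    min a b ≤ (A ⊗ₖ B - (1 : Matrix (Fin a × Fin b) (Fin a × Fin b) F)).rank := by
  rcases le_total a b with hab | hab
  · rw [min_eq_left hab, ← one_smul F (1 : Matrix (Fin a × Fin b) (Fin a × Fin b) F)]
    exact SubElusive.le_rank_kron hab hA hK 1
  · rw [min_eq_right hab, ← one_smul F (1 : Matrix (Fin a × Fin b) (Fin a × Fin b) F), ← kron_swap_rank]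
    refine SubElusive.le_rank_kron hab hB (fun z hz => hK z ?_) 1
    ext ⟨i, k⟩ ⟨j, l⟩
    have := congrArg (fun M : Matrix (Fin b × Fin a) (Fin b × Fin a) F => M (k, i) (l, j)) hz
    simpa [Matrix.one_apply, Prod.ext_iff, mul_comm (B k l), and_comm] using this

variable [Fintype F] [hr : Fact r.Prime]

/-- A moved subspace of dimension at least the order of `q` modulo `r`. -/
theorem exists_moving {M : Matrix (Fin a) (Fin a) F} (hr0 : (r : F) ≠ 0) (hM : M ^ r = 1) (hM1 : M ≠ 1) :
    ∃ (U : Submodule F (Fin a → F)) (w : Fin a → F), orderOf (Fintype.card F : ZMod r) ≤ finrank F U ∧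
      (∀ v ∈ U, Mᵀ *ᵥ v ∈ U) ∧ (∀ v ∈ U, Mᵀ *ᵥ v = v → v = 0) ∧
      (∀ S : Submodule F (Fin a → F), (∀ v ∈ S, Mᵀ *ᵥ v ∈ S) → w ∈ S → U ≤ S) := by
  classical
  obtain ⟨T, hTd⟩ : ∃ T : Matrix (Fin a) (Fin a) F, T = Mᵀ := ⟨_, rfl⟩
  have hT : T ^ r = 1 := by rw [hTd, ← Matrix.transpose_pow, hM, Matrix.transpose_one]
  have hpow : ∀ (k : ℕ) (v w : Fin a → F), T *ᵥ v = v + w → T *ᵥ w = w → T ^ k *ᵥ v = v + (k : F) • w := by
    intro k v w hv hw
    induction k with
    | zero => simp
    | succ k ih =>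
      rw [pow_succ', ← Matrix.mulVec_mulVec, ih, Matrix.mulVec_add, hv, Matrix.mulVec_smul, hw, Nat.cast_succ,
        add_smul, one_smul]
      abel
  have hfix : ∀ v, T *ᵥ (T *ᵥ v - v) = T *ᵥ v - v → T *ᵥ v - v = 0 := by
    intro v h
    have h1 := hpow r v (T *ᵥ v - v) (by abel) h
    rw [hT, Matrix.one_mulVec] at h1
    exact (smul_eq_zero.1 (add_eq_left.1 h1.symm)).resolve_left hr0
  obtain ⟨v0, hv0⟩ : ∃ v, T *ᵥ v - v ≠ 0 := by
    by_contra h
    push Not at h
    refine hM1 (Matrix.transpose_injective ?_)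
    rw [← hTd, Matrix.transpose_one]
    exact Matrix.ext_iff_mulVec.2 fun v => by rw [Matrix.one_mulVec]; exact sub_eq_zero.1 (h v)
  obtain ⟨w, hwd⟩ : ∃ w, w = T *ᵥ v0 - v0 := ⟨_, rfl⟩
  let U : Submodule F (Fin a → F) := Submodule.span F (Set.range fun k : ℕ => T ^ k *ᵥ w)
  have hUinv : ∀ v ∈ U, T *ᵥ v ∈ U := by
    intro v hv
    induction hv using Submodule.span_induction with
    | mem y hy =>
      obtain ⟨k, rfl⟩ := hy
      exact Submodule.subset_span ⟨k + 1, by simp only [Matrix.mulVec_mulVec, ← pow_succ']⟩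
    | zero => rw [Matrix.mulVec_zero]; exact zero_mem _
    | add x y _ _ hx hy => rw [Matrix.mulVec_add]; exact add_mem hx hy
    | smul c x _ hx => rw [Matrix.mulVec_smul]; exact Submodule.smul_mem _ _ hx
  have hUrange : ∀ v ∈ U, ∃ u, v = T *ᵥ u - u := by
    intro v hv
    induction hv using Submodule.span_induction with
    | mem y hy =>
      obtain ⟨k, rfl⟩ := hy
      refine ⟨T ^ k *ᵥ v0, ?_⟩
      simp only [hwd, Matrix.mulVec_sub, Matrix.mulVec_mulVec, ← pow_succ, ← pow_succ']
    | zero => exact ⟨0, by simp⟩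
    | add x y _ _ hx hy =>
      obtain ⟨u, rfl⟩ := hx
      obtain ⟨u', rfl⟩ := hy
      exact ⟨u + u', by rw [Matrix.mulVec_add]; abel⟩
    | smul c x _ hx =>
      obtain ⟨u, rfl⟩ := hx
      exact ⟨c • u, by rw [Matrix.mulVec_smul, smul_sub]⟩
  have hUfix : ∀ v ∈ U, T *ᵥ v = v → v = 0 := by
    intro v hv h
    obtain ⟨u, rfl⟩ := hUrange v hv
    exact hfix u h
  refine ⟨U, w, ?_, hTd ▸ hUinv, hTd ▸ hUfix, fun S hS hw => Submodule.span_le.2 ?_⟩
  · -- orbits of length `r` on the non-zero vectors of `U`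
    let N : U →ₗ[F] U := (Matrix.mulVecLin T).restrict hUinv
    have hNa : ∀ v : U, ((N v : U) : Fin a → F) = T *ᵥ (v : Fin a → F) := fun v => rfl
    have hNpow : ∀ (k : ℕ) (v : U), (((N ^ k) v : U) : Fin a → F) = T ^ k *ᵥ (v : Fin a → F) := by
      intro k
      induction k with
      | zero => intro v; simp
      | succ k ih => intro v; rw [pow_succ', Module.End.mul_apply, hNa, ih, pow_succ', Matrix.mulVec_mulVec]
    haveI : Finite U := Module.finite_of_finite F
    letI : Fintype U := Fintype.ofFinite _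
    let π : Equiv.Perm U :=
      { toFun := N
        invFun := ⇑(N ^ (r - 1))
        left_inv := fun v => Subtype.ext (by
          rw [hNpow, hNa, Matrix.mulVec_mulVec, ← pow_succ, Nat.sub_add_cancel hr.out.one_le, hT, Matrix.one_mulVec])
        right_inv := fun v => Subtype.ext (by
          rw [hNa, hNpow, Matrix.mulVec_mulVec, ← pow_succ', Nat.sub_add_cancel hr.out.one_le, hT, Matrix.one_mulVec]) }
    have hπp : ∀ (k : ℕ) v, (π ^ k) v = (N ^ k) v := by
      intro k
      induction k with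
      | zero => intro v; rfl
      | succ k ih => intro v; rw [pow_succ', pow_succ', Equiv.Perm.mul_apply, Module.End.mul_apply, ih]; rfl
    have hπ : π ^ r ^ 1 = 1 := Equiv.ext fun v => Subtype.ext (by
      rw [pow_one, hπp, hNpow, hT, Matrix.one_mulVec]; rfl)
    have hsupp : π.supportᶜ = ({0} : Finset U) := by
      ext v
      rw [Finset.mem_compl, Equiv.Perm.notMem_support, Finset.mem_singleton]
      exact ⟨fun h => Subtype.ext (hUfix _ v.2 (congrArg Subtype.val h)), fun h => by rw [h]; exact map_zero N⟩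
    have hmod := Equiv.Perm.card_compl_support_modEq (p := r) (n := 1) hπ
    rw [hsupp, Finset.card_singleton, Module.card_eq_pow_finrank (K := F)] at hmod
    have h1 : (Fintype.card F : ZMod r) ^ finrank F U = 1 := by
      have := (ZMod.natCast_eq_natCast_iff _ _ _).2 hmod.symm
      simpa using this
    refine Nat.le_of_dvd ?_ (orderOf_dvd_of_pow_eq_one h1)
    refine Nat.pos_of_ne_zero fun h0 => hv0 ?_
    have : U = ⊥ := Submodule.finrank_eq_zero.1 h0
    have hw : w ∈ U := Submodule.subset_span ⟨0, by simp⟩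
    rw [this, Submodule.mem_bot] at hw
    rw [← hwd, hw]
  · rintro _ ⟨k, rfl⟩
    show T ^ k *ᵥ w ∈ S
    induction k with
    | zero => simpa using hw
    | succ k ih =>
      rw [pow_succ', ← Matrix.mulVec_mulVec, hTd]
      exact hS _ (hTd ▸ ih)

omit [Fintype F] in
/-- Tensors killed by a subspace on the left. -/
theorem finrank_killed (U : Submodule F (Fin a → F)) :
    ∃ Z : Submodule F (Fin a × Fin b → F), (∀ X, X ∈ Z ↔ ∀ v ∈ U, ∀ k, ∑ i, v i * X (i, k) = 0) ∧
      finrank F Z + finrank F U * b ≤ a * b := by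
  classical
  let A : Submodule F (Fin a → F) :=
    { carrier := {y | ∀ v ∈ U, ∑ i, v i * y i = 0}
      add_mem' := fun {y y'} hy hy' v hv => by simp [mul_add, Finset.sum_add_distrib, hy v hv, hy' v hv]
      zero_mem' := fun v _ => by simp
      smul_mem' := fun c y hy v hv => by simp [mul_left_comm, ← Finset.mul_sum, hy v hv] }
  have hA : finrank F A + finrank F U ≤ a := by
    have h1 := Subspace.finrank_add_finrank_dualAnnihilator_eq U
    rw [Module.finrank_fin_fun] at h1
    let φ : A →ₗ[F] U.dualAnnihilator :=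
      { toFun := fun y => ⟨dotProductEquiv F (Fin a) y.1, (Submodule.mem_dualAnnihilator _).2 fun v hv => by
          simpa [dotProduct, mul_comm] using y.2 v hv⟩
        map_add' := fun y y' => Subtype.ext (map_add (dotProductEquiv F (Fin a)) y.1 y'.1)
        map_smul' := fun c y => Subtype.ext (map_smul (dotProductEquiv F (Fin a)) c y.1) }
    have hφ : Function.Injective φ := fun y y' h => Subtype.ext ((dotProductEquiv F (Fin a)).injective (congrArg Subtype.val h))
    have := LinearMap.finrank_le_finrank_of_injective hφ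
    omega
  let Z : Submodule F (Fin a × Fin b → F) :=
    { carrier := {X | ∀ v ∈ U, ∀ k, ∑ i, v i * X (i, k) = 0}
      add_mem' := fun {y y'} hy hy' v hv k => by simp [mul_add, Finset.sum_add_distrib, hy v hv k, hy' v hv k]
      zero_mem' := fun v _ k => by simp
      smul_mem' := fun c y hy v hv k => by simp [mul_left_comm, ← Finset.mul_sum, hy v hv k] }
  refine ⟨Z, fun X => Iff.rfl, ?_⟩
  let ψ : Z →ₗ[F] (Fin b → A) :=
    { toFun := fun X k => ⟨fun i => X.1 (i, k), fun v hv => X.2 v hv k⟩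
      map_add' := fun X Y => rfl
      map_smul' := fun c X => rfl }
  have hψ : Function.Injective ψ := fun X Y h => Subtype.ext (funext fun x =>
    congrFun (congrArg Subtype.val (congrFun h x.2)) x.1)
  have h2 := LinearMap.finrank_le_finrank_of_injective hψ
  rw [Module.finrank_pi_fintype, Finset.sum_const, Finset.card_univ, Fintype.card_fin, smul_eq_mul] at h2
  calc finrank F Z + finrank F U * b ≤ b * finrank F A + finrank F U * b := by omega
    _ = (finrank F A + finrank F U) * b := by ring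
    _ ≤ a * b := Nat.mul_le_mul_right b hA

omit [Fintype F] hr in
theorem act_left (A : Matrix (Fin a) (Fin a) F) (B : Matrix (Fin b) (Fin b) F) (v : Fin a → F)
    (X : Fin a × Fin b → F) (k : Fin b) :
    ∑ i, v i * ((A ⊗ₖ B) *ᵥ X) (i, k) = ∑ l, B k l * ∑ j, (Aᵀ *ᵥ v) j * X (j, l) := by
  simp only [Matrix.mulVec, dotProduct, Fintype.sum_prod_type, Matrix.kroneckerMap_apply, Matrix.transpose_apply,
    Finset.mul_sum, Finset.sum_mul]
  conv_lhs => rw [Finset.sum_comm]; enter [2, j]; rw [Finset.sum_comm]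
  rw [Finset.sum_comm]
  exact Finset.sum_congr rfl fun l _ => Finset.sum_congr rfl fun j _ => Finset.sum_congr rfl fun i _ => by ring

/-- The bound with one moved factor. -/
theorem rank_moving {A : Matrix (Fin a) (Fin a) F} {B : Matrix (Fin b) (Fin b) F} (hr0 : (r : F) ≠ 0)
    (hB : IsUnit B.det) (hA : A ^ r = 1) (hA1 : A ≠ 1) :
    orderOf (Fintype.card F : ZMod r) * b ≤ (A ⊗ₖ B - (1 : Matrix (Fin a × Fin b) (Fin a × Fin b) F)).rank + b ∧
    (B = 1 → orderOf (Fintype.card F : ZMod r) * b ≤ (A ⊗ₖ B - (1 : Matrix (Fin a × Fin b) (Fin a × Fin b) F)).rank) := by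
  classical
  obtain ⟨U, w, hU, hUinv, hUfix, hUmin⟩ := exists_moving hr0 hA hA1
  obtain ⟨Z, hZ, hZd⟩ := finrank_killed (b := b) U
  have hUb : orderOf (Fintype.card F : ZMod r) * b ≤ finrank F U * b := Nat.mul_le_mul_right b hU
  obtain ⟨K, hKd⟩ : ∃ K, K = A ⊗ₖ B - (1 : Matrix (Fin a × Fin b) (Fin a × Fin b) F) := ⟨_, rfl⟩
  rw [← hKd]
  have hrn : K.rank + finrank F (LinearMap.ker K.mulVecLin) = a * b := by
    have h2 := LinearMap.finrank_range_add_finrank_ker K.mulVecLin
    rw [Module.finrank_fintype_fun_eq_card, Fintype.card_prod, Fintype.card_fin, Fintype.card_fin] at h2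
    exact h2
  have hker : ∀ X ∈ LinearMap.ker K.mulVecLin, (A ⊗ₖ B) *ᵥ X = X := fun X hX => by
    rw [LinearMap.mem_ker, Matrix.mulVecLin_apply, hKd, Matrix.sub_mulVec, Matrix.one_mulVec, sub_eq_zero] at hX
    exact hX
  refine ⟨?_, fun hB1 => ?_⟩
  · let Ψ : LinearMap.ker K.mulVecLin →ₗ[F] (Fin b → F) :=
      { toFun := fun X k => ∑ i, w i * X.1 (i, k)
        map_add' := fun X Y => funext fun k => by simp [mul_add, Finset.sum_add_distrib]
        map_smul' := fun s X => funext fun k => by simp [Finset.mul_sum, mul_left_comm] }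
    have hkerΨ : (LinearMap.ker Ψ).map (LinearMap.ker K.mulVecLin).subtype ≤ Z := by
      rintro _ ⟨X, hX, rfl⟩
      refine (hZ _).2 fun v hv k => ?_
      let S : Submodule F (Fin a → F) :=
        { carrier := {v | ∀ k, ∑ i, v i * X.1 (i, k) = 0}
          add_mem' := fun {y y'} hy hy' k => by simp [add_mul, Finset.sum_add_distrib, hy k, hy' k]
          zero_mem' := fun k => by simp
          smul_mem' := fun c y hy k => by simp [mul_assoc, ← Finset.mul_sum, hy k] }
      have hS : ∀ v ∈ S, Aᵀ *ᵥ v ∈ S := by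
        intro v hv
        have h1 : B *ᵥ (fun l => ∑ j, (Aᵀ *ᵥ v) j * X.1 (j, l)) = 0 := funext fun k => by
          have := act_left A B v X.1 k
          rw [hker _ X.2] at this
          rw [Pi.zero_apply, ← hv k, this]
          rfl
        have h3 : (fun l => ∑ j, (Aᵀ *ᵥ v) j * X.1 (j, l)) = 0 :=
          (Matrix.mulVec_injective_iff_isUnit.2 ((Matrix.isUnit_iff_isUnit_det B).2 hB)) (by rw [h1, Matrix.mulVec_zero])
        exact fun k => congrFun h3 k
      exact hUmin S hS (fun k => congrFun (LinearMap.mem_ker.1 hX) k) hv k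
    have h1 := LinearMap.finrank_range_add_finrank_ker Ψ
    have h2 := Submodule.finrank_le (LinearMap.range Ψ)
    rw [Module.finrank_fin_fun] at h2
    have h3 := Submodule.finrank_mono hkerΨ
    rw [← (Submodule.equivMapOfInjective _ (Submodule.subtype_injective _) (LinearMap.ker Ψ)).finrank_eq] at h3
    omega
  · have hle : LinearMap.ker K.mulVecLin ≤ Z := by
      intro X hX
      refine (hZ X).2 fun v hv k => ?_
      let D : U →ₗ[F] U := (Matrix.mulVecLin Aᵀ).restrict hUinv - LinearMap.id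
      have hD : ∀ u : U, ((D u : U) : Fin a → F) = Aᵀ *ᵥ (u : Fin a → F) - u := fun u => rfl
      have hDinj : Function.Injective D := (injective_iff_map_eq_zero D).2 fun u hu =>
        Subtype.ext (hUfix _ u.2 (sub_eq_zero.1 (by rw [← hD, hu]; rfl)))
      obtain ⟨u, hu⟩ := (LinearMap.injective_iff_surjective.1 hDinj) ⟨v, hv⟩
      have hv' : v = Aᵀ *ᵥ (u : Fin a → F) - u := by rw [← hD, hu]
      have h1 := act_left A B (u : Fin a → F) X k
      rw [hker X hX, hB1] at h1
      simp only [Matrix.one_apply, ite_mul, one_mul, zero_mul, Finset.sum_ite_eq, Finset.mem_univ, if_true] at h1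
      simp only [hv', Pi.sub_apply, sub_mul, Finset.sum_sub_distrib, ← h1, sub_self]
    have h3 := Submodule.finrank_mono hle
    omega

end CfsgLib.SpTensor
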